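import Cfsg.Agent.H125.Hall.Defs
import Cfsg.Agent.S0542
import Cfsg.Agent.S0205
import Cfsg.Agent.H824.ProdLem
import Cfsg.Agent.SignalizersComponents.Components

/-!
# S2223, E3 and E4: `E₆^ε(q)` (helper38)

* `cent` : `t₀ t₁` centralises the components;
* `hp_of` : Hall subgroups of even order prime to `p` are pronormal.

The stubs `TQ.lie`, `card_dvd_aut`, `pr_of_rep`, `E6V.odd_comm`, `E6F.comp`, `hp_of_fcent` are the hypotheses `HLie`,
`HCard`, `HPr`, `HOdd`, `HComp`, `HFc`.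
-/

set_option autoImplicit false

namespace Cfsg.Agent.H38.Hall

open Subgroup Cfsg.Agent.Cit Cfsg.Agent.H125.Hall Cfsg.Agent.SignalizersComponents

section Gp

variable {A : Type*} [Group A] [Finite A]

/-- a subnormal subgroup which meets a Sylow 2-subgroup trivially has odd order -/
theorem odd_of_inf (S : Sylow 2 A) {N : Subgroup A} (hN : N.IsSubnormal)
    (h : ∀ s ∈ (S : Subgroup A), s ∈ N → s = 1) : Odd (Nat.card N) := by
  have : Fact (Nat.Prime 2) := ⟨Nat.prime_two⟩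
  obtain ⟨Q, hQ⟩ := S0542.result 2 N hN S
  have h1 : (Q : Subgroup N) = ⊥ := by
    rw [hQ, eq_bot_iff]
    intro x hx
    rw [mem_bot]
    exact Subtype.ext (h x (mem_subgroupOf.1 hx) x.2)
  have h2 := Q.not_dvd_index
  rw [h1, index_bot] at h2
  rw [← Nat.not_even_iff_odd]
  exact fun h3 => h2 h3.two_dvd

/-- quasisimple groups have even order -/
theorem not_odd_quasisimple {K : Type*} [Group K] [Finite K] (h : IsQuasisimple K) : ¬ Odd (Nat.card K) := by
  intro hcon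
  have h1 : Group.IsSolvable K := Cfsg.Agent.S0205.result hcon
  have h2 := h.2
  have h3 : _root_.commutator K = ⊤ := h.1.commutator_eq_top
  have h4 : Nontrivial K := by
    by_contra hn
    rw [not_nontrivial_iff_subsingleton] at hn
    have := h2.toNontrivial
    obtain ⟨a, b, hab⟩ := exists_pair_ne (K ⧸ center K)
    obtain ⟨a, rfl⟩ := QuotientGroup.mk_surjective a
    obtain ⟨b, rfl⟩ := QuotientGroup.mk_surjective b
    exact hab (by rw [Subsingleton.elim a b])
  exact (Group.IsSolvable.commutator_lt_top_of_nontrivial K).ne h3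

theorem quot_not_comm {K : Type*} [Group K] (h : IsQuasisimple K) : ¬ IsMulCommutative (K ⧸ center K) := by
  intro hcon
  have h1 : _root_.commutator K ≤ center K := by
    rw [_root_.commutator_def, commutator_le]
    intro a _ b _
    rw [← QuotientGroup.eq_one_iff]
    have h2 : ((a : K ⧸ center K)) * (b : K ⧸ center K) = (b : K ⧸ center K) * (a : K ⧸ center K) := hcon.is_comm.comm _ _
    show (a : K ⧸ center K) * (b : K ⧸ center K) * (a : K ⧸ center K)⁻¹ * (b : K ⧸ center K)⁻¹ = 1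
    rw [h2]
    group
  rw [h.1.commutator_eq_top] at h1
  have h3 := h.2.toNontrivial
  obtain ⟨a, b, hab⟩ := exists_pair_ne (K ⧸ center K)
  obtain ⟨a, rfl⟩ := QuotientGroup.mk_surjective a
  obtain ⟨b, rfl⟩ := QuotientGroup.mk_surjective b
  apply hab
  rw [QuotientGroup.eq]
  exact h1 (mem_top _)

omit [Finite A] in
/-- an involution `u` with `u t⁻¹` in a subgroup of odd order is conjugate to `t` there -/
theorem exists_conj_inv {C : Subgroup A} (hC : Odd (Nat.card C)) {t u : A} (ht : t * t = 1) (hu : u * u = 1)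
    (hw : u * t⁻¹ ∈ C) : ∃ v ∈ C, u = v * t * v⁻¹ := by
  have ht' : t⁻¹ = t := inv_eq_of_mul_eq_one_left ht
  have hu' : u⁻¹ = u := inv_eq_of_mul_eq_one_left hu
  rw [ht'] at hw
  have hodd : Odd (orderOf (u * t)) := by
    have h1 : orderOf (⟨u * t, hw⟩ : C) ∣ Nat.card C := orderOf_dvd_natCard _
    rw [Subgroup.orderOf_mk] at h1
    exact Odd.of_dvd_nat hC h1
  obtain ⟨m, hm⟩ := hodd
  have h2 : (u * t) ^ (m + 1) * (u * t) ^ (m + 1) = u * t := by
    rw [← pow_add, show m + 1 + (m + 1) = (2 * m + 1) + 1 by ring, ← hm, pow_succ, pow_orderOf_eq_one, one_mul]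
  have h3 : ∀ n : ℕ, t * (u * t) ^ n = ((u * t) ^ n)⁻¹ * t := by
    intro n
    induction n with
    | zero => simp
    | succ n ih =>
      rw [pow_succ, ← mul_assoc, ih, mul_inv_rev, mul_inv_rev, ht', hu']
      have h4 : t * (u * t) = (u * t)⁻¹ * t := by rw [mul_inv_rev, ht', hu']; group
      have h5 : Commute ((u * t) ^ n) (u * t) := (Commute.refl _).pow_left n
      rw [mul_assoc, h4, ← mul_assoc, mul_inv_rev, ht', hu']
      have h6 := h5.inv_left.inv_right.eq
      rw [mul_inv_rev, ht', hu'] at h6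
      rw [h6]
  refine ⟨(u * t) ^ (m + 1), pow_mem hw _, ?_⟩
  have h7 : t * ((u * t) ^ (m + 1))⁻¹ = (u * t) ^ (m + 1) * t := by
    have h8 := h3 (m + 1)
    calc t * ((u * t) ^ (m + 1))⁻¹ = (u * t) ^ (m + 1) * (((u * t) ^ (m + 1))⁻¹ * t) * ((u * t) ^ (m + 1))⁻¹ := by group
      _ = (u * t) ^ (m + 1) * (t * (u * t) ^ (m + 1)) * ((u * t) ^ (m + 1))⁻¹ := by rw [h8]
      _ = _ := by group
  rw [mul_assoc, h7, ← mul_assoc, h2, mul_assoc, ht, mul_one]

end Gp

/-- the stub `TQ.lie` -/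
def HLie : Prop := ∀ (A : Type) [Group A] [Finite A] (t : A) (Q K L : Subgroup A), TQ t Q K → Cfsg.IsComponent L →
    (∀ a ∈ Q, ∀ x ∈ L, a * x * a⁻¹ ∈ L) → (¬ ∀ x ∈ L, t * x = x * t) →
    (∀ g : A, (∀ x ∈ L, g * x * g⁻¹ ∈ L) → (∀ x ∈ L, (g * t * g⁻¹ * t⁻¹) * x = x * (g * t * g⁻¹ * t⁻¹)) →
      ∃ c : A, (∀ x ∈ L, c * x = x * c) ∧ (g * c) * t = t * (g * c)) → OddLieM (↥L ⧸ Subgroup.center ↥L)

/-- the stub `card_dvd_aut` -/
def HCard : Prop := ∀ (A : Type) [Group A] [Finite A] (L P : Subgroup A), Cfsg.IsQuasisimple L →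
    (∀ a ∈ P, ∀ x ∈ L, a * x * a⁻¹ ∈ L) →
    Nat.card P ∣ Nat.card ↥(P ⊓ centralizer (L : Set A)) * Nat.card (MulAut (↥L ⧸ Subgroup.center ↥L))

/-- the stub `pr_of_rep` -/
def HPr : Prop := ∀ (k : Type) [Field k] (V : Type) [AddCommGroup V] [Module k V] [FiniteDimensional k V] (A : Type)
    [Group A] [Finite A] (ρ : A →* (V →ₗ[k] V)) (L : Subgroup A), Cfsg.IsQuasisimple L → (Nat.card L : k) ≠ 0 →
    ∀ W : Submodule k V, (∀ x ∈ L, ∀ v ∈ W, ρ x v ∈ W) → (¬ ∀ x ∈ L, ∀ v ∈ W, ρ x v = v) →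
    PR (Module.finrank k W) (↥L ⧸ Subgroup.center ↥L)

/-- the stub `E6F.comp` -/
def HComp : Prop := ∀ (A : Type) [Group A] [Finite A] (S : Sylow 2 A) (t : Fin 4 → A) (Q K : Fin 4 → Subgroup A),
    E6F S t Q K → ∀ L : Subgroup A, Cfsg.IsComponent L → (¬ ∀ x ∈ L, t 0 * t 1 * x = x * (t 0 * t 1)) →
    (∀ s ∈ (S : Subgroup A), ∀ x ∈ L, s * x * s⁻¹ ∈ L) ∧
      (∀ s ∈ (S : Subgroup A), (∀ x ∈ L, s * x = x * s) → s = 1)

/-- the stub `E6V.odd_comm` -/
def HOdd : Prop := ∀ (k : Type) [Field k] [IsAlgClosed k] (V : Type) [AddCommGroup V] [Module k V]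
    [FiniteDimensional k V] (A : Type) [Group A] [Finite A] (ρ : A →* (V →ₗ[k] V)) (S : Sylow 2 A) (t : Fin 4 → A)
    (Q K : Fin 4 → Subgroup A), E6F S t Q K → E6V ρ t Q → (Nat.card A : k) ≠ 0 → ∀ r : ℕ, r.Prime → r ≠ 2 →
    ∀ R : Subgroup A, R.Normal → IsPGroup r R → ∀ x ∈ R, t 0 * t 1 * x = x * (t 0 * t 1)

/-- the stub `hp_of_fcent` -/
def HFc : Prop := ∀ (G : Type) [Group G] [Finite G] (p : ℕ) (S : Sylow 2 G),
    (∀ g ∈ normalizer ((S : Subgroup G) : Set G), Odd (orderOf g) → ∀ s ∈ (S : Subgroup G), g * s = s * g) →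
    (∀ H : Subgroup G, (S : Subgroup G) ≤ H → ¬ p ∣ Nat.card H → ∀ g : G, Odd (orderOf g) →
      (∀ s ∈ (S : Subgroup G), g * s = s * g) → FCent H g) → HP p G

/-- E3: conclusion -/
theorem cent (hLie : HLie) (hCard : HCard) (hPr : HPr) (hComp : HComp) {k : Type} [Field k] [IsAlgClosed k] {V : Type} [AddCommGroup V] [Module k V]
    [FiniteDimensional k V] {A : Type} [Group A] [Finite A] {ρ : A →* (V →ₗ[k] V)} {S : Sylow 2 A} {t : Fin 4 → A}
    {Q K : Fin 4 → Subgroup A} (h : E6F S t Q K) (hV : E6V ρ t Q) (hc : (Nat.card A : k) ≠ 0)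
    (ho : 2 ^ 17 ∣ Nat.card A)
    (hals : ∀ (T : Type) [Group T] [Finite T] [IsSimpleGroup T], ¬ IsMulCommutative T → OddLieM T → ALSX T)
    {L : Subgroup A} (hL : Cfsg.IsComponent L) : ∀ x ∈ L, t 0 * t 1 * x = x * (t 0 * t 1) := by
  by_contra hz
  have : Fact (Nat.Prime 2) := ⟨Nat.prime_two⟩
  obtain ⟨hn, hcs⟩ := hComp A S t Q K h L hL hz
  -- the only component
  have honly : ∀ L' : Subgroup A, IsComponent L' → L' = L := by
    intro L' hL'
    by_contra hne
    have h1 := Components.component_le_centralizer_of_ne hL' hL hne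
    refine not_odd_quasisimple hL'.2 (odd_of_inf S hL'.1 fun s hs hs' => hcs s hs fun x hx => ?_)
    exact (mem_centralizer_iff.1 (h1 hs') x hx).symm
  have hconj : ∀ g : A, ∀ x ∈ L, g * x * g⁻¹ ∈ L := by
    intro g x hx
    rw [← honly _ (Components.isComponent_conj g hL)]
    exact ⟨x, hx, rfl⟩
  have hLn : L.Normal := ⟨fun x hx g => hconj g x hx⟩
  have hCn : (centralizer (L : Set A)).Normal := inferInstance
  have hCodd : Odd (Nat.card ↥(centralizer (L : Set A))) := by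
    refine odd_of_inf S hCn.isSubnormal fun s hs hs' => hcs s hs fun x hx => ?_
    exact (mem_centralizer_iff.1 hs' x hx).symm
  -- one of the `t i` does not centralise `L`
  obtain ⟨i, hi⟩ : ∃ i, ¬ ∀ x ∈ L, t i * x = x * t i := by
    by_contra hcon
    push Not at hcon
    apply hz
    intro x hx
    rw [mul_assoc, hcon 1 x hx, ← mul_assoc, hcon 0 x hx, mul_assoc]
  have hti : t i * t i = 1 := by
    have h1 := pow_orderOf_eq_one (t i)
    rwa [(h.tq i).ord, sq] at h1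
  have hlie : OddLieM (↥L ⧸ Subgroup.center ↥L) := by
    refine hLie A (t i) (Q i) (K i) L (h.tq i) hL (fun a ha => hn a (h.QS i ha)) hi fun g _ hg => ?_
    have hu : (g * t i * g⁻¹) * (g * t i * g⁻¹) = 1 := by
      calc (g * t i * g⁻¹) * (g * t i * g⁻¹) = g * (t i * t i) * g⁻¹ := by group
        _ = 1 := by rw [hti]; group
    obtain ⟨v, hv, hv'⟩ := exists_conj_inv hCodd hti hu (mem_centralizer_iff.2 fun x hx => (hg x hx).symm)
    refine ⟨g⁻¹ * v⁻¹ * g, fun x hx => ?_, ?_⟩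
    · have h1 := hCn.conj_mem v⁻¹ (inv_mem hv) g⁻¹
      rw [inv_inv] at h1
      exact (mem_centralizer_iff.1 h1 x hx).symm
    · have h1 : g * (g⁻¹ * v⁻¹ * g) = v⁻¹ * g := by group
      rw [h1]
      calc v⁻¹ * g * t i = v⁻¹ * (g * t i * g⁻¹) * g := by group
        _ = v⁻¹ * (v * t i * v⁻¹) * g := by rw [hv']
        _ = t i * (v⁻¹ * g) := by group
  have hsimple : IsSimpleGroup (↥L ⧸ Subgroup.center ↥L) := hL.2.2
  have hX := hals (↥L ⧸ Subgroup.center ↥L) (quot_not_comm hL.2) hlie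
  -- the order
  have hdvd : 2 ^ 17 ∣ Nat.card (MulAut (↥L ⧸ Subgroup.center ↥L)) := by
    have h1 := hCard A L (S : Subgroup A) hL.2 hn
    have h2 : (S : Subgroup A) ⊓ centralizer (L : Set A) = ⊥ := by
      rw [eq_bot_iff]
      intro s hs
      rw [mem_bot]
      exact hcs s (mem_inf.1 hs).1 fun x hx => (mem_centralizer_iff.1 (mem_inf.1 hs).2 x hx).symm
    rw [h2, card_bot, one_mul] at h1
    have h3 : 2 ^ 17 ∣ Nat.card (S : Subgroup A) := by
      rw [S.card_eq_multiplicity]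
      exact pow_dvd_pow 2 ((Nat.prime_two.pow_dvd_iff_le_factorization Nat.card_pos.ne').1 ho)
    exact h3.trans h1
  have hv2 : 17 ≤ v2 (↥L ⧸ Subgroup.center ↥L) := by
    have : Finite (MulAut (↥L ⧸ Subgroup.center ↥L)) :=
      Finite.of_injective (fun e : MulAut (↥L ⧸ Subgroup.center ↥L) => (e : (↥L ⧸ Subgroup.center ↥L) → (↥L ⧸ Subgroup.center ↥L)))
        DFunLike.coe_injective
    exact (Nat.prime_two.pow_dvd_iff_le_factorization Nat.card_pos.ne').1 hdvd
  rcases hX with hX | hX | hX | hX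
  · -- the inequality
    have hLc : (Nat.card L : k) ≠ 0 := by
      intro h0
      apply hc
      obtain ⟨c, hc'⟩ := Subgroup.card_subgroup_dvd_card L
      rw [hc', Nat.cast_mul, h0, zero_mul]
    have h1 := hPr k V A ρ L hL.2 hLc ⊤ (fun _ _ _ _ => Submodule.mem_top) (by
      intro hcon
      apply hz
      intro x hx
      have h2 : x = 1 := by
        apply hV.inj
        rw [map_one]
        ext v
        exact hcon x hx v Submodule.mem_top
      rw [h2]
      group)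
    rw [finrank_top, hV.dim] at h1
    have h2 := (hX 27 h1).2.2.2 le_rfl
    omega
  · have := hX.1
    omega
  · obtain ⟨e⟩ := hX
    rw [Nat.card_congr (MulAut.congr e).toEquiv, H824.ProdLem.card_aut_a6] at hdvd
    revert hdvd
    norm_num
  · have := hX.1
    omega

section Restrict

variable {G : Type*} [Group G]

theorem isQ_subgroupOf {Q H : Subgroup G} (h : AutQuat.IsQ Q) (hQH : Q ≤ H) : AutQuat.IsQ (Q.subgroupOf H) := by
  obtain ⟨n, ⟨e⟩⟩ := h
  exact ⟨n, ⟨(subgroupOfEquivOfLe hQH).trans e⟩⟩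

theorem TQ.restrict {t : G} {Q K H : Subgroup G} (h : TQ t Q K) (hQH : Q ≤ H) :
    TQ (⟨t, hQH h.mem⟩ : H) (Q.subgroupOf H) (K.subgroupOf H) where
  isQ := isQ_subgroupOf h.isQ hQH
  le := fun _ hx => mem_subgroupOf.2 (h.le (mem_subgroupOf.1 hx))
  mem := mem_subgroupOf.2 h.mem
  ord := by rw [Subgroup.orderOf_mk]; exact h.ord
  uniq := fun x hx ho => Subtype.ext (h.uniq x (mem_subgroupOf.1 hx) (by rwa [Subgroup.orderOf_coe]))
  norm := fun x hx y hy => mem_subgroupOf.2 (h.norm x (congrArg Subtype.val hx) y (mem_subgroupOf.1 hy))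

variable {S : Sylow 2 G} {t : Fin 4 → G} {Q K : Fin 4 → Subgroup G}

theorem E6F.t_mem (h : E6F S t Q K) (i : Fin 4) : t i ∈ (S : Subgroup G) := h.QS i (h.tq i).mem

theorem mem_sub {H : Subgroup G} {hSH : (S : Subgroup G) ≤ H} {x : H} :
    x ∈ ((S.subtype hSH : Sylow 2 H) : Subgroup H) ↔ (x : G) ∈ (S : Subgroup G) := by
  rw [Sylow.coe_subtype, mem_subgroupOf]

theorem E6F.restrict (h : E6F S t Q K) {H : Subgroup G} (hSH : (S : Subgroup G) ≤ H) :
    E6F (S.subtype hSH) (fun i => (⟨t i, hSH (E6F.t_mem h i)⟩ : H)) (fun i => (Q i).subgroupOf H)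
      (fun i => (K i).subgroupOf H) where
  tq := fun i => TQ.restrict (h.tq i) ((h.QS i).trans hSH)
  QS := fun i x hx => mem_sub.2 (h.QS i (mem_subgroupOf.1 hx))
  inj := fun i j hij => h.inj (congrArg Subtype.val hij)
  comm := fun i j hij x hx y hy => Subtype.ext (h.comm i j hij x (mem_subgroupOf.1 hx) y (mem_subgroupOf.1 hy))
  prod := Subtype.ext h.prod
  perm := fun s hs i => by
    obtain ⟨j, hj⟩ := h.perm s (mem_sub.1 hs) i
    exact ⟨j, Subtype.ext hj⟩
  trans := fun i j => by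
    obtain ⟨s, hs, hs'⟩ := h.trans i j
    exact ⟨⟨s, hSH hs⟩, mem_sub.2 hs, Subtype.ext hs'⟩
  swap := by
    obtain ⟨s, hs, h0, h1, h2, h3⟩ := h.swap
    exact ⟨⟨s, hSH hs⟩, mem_sub.2 hs, Subtype.ext h0, Subtype.ext h1, Subtype.ext h2, Subtype.ext h3⟩
  ab := fun x hx y hy hx' hy' => Subtype.ext (h.ab x (mem_sub.1 hx) y (mem_sub.1 hy)
    (fun i q hq => congrArg Subtype.val (hx' i ⟨q, hSH (h.QS i hq)⟩ (mem_subgroupOf.2 hq)))
    (fun i q hq => congrArg Subtype.val (hy' i ⟨q, hSH (h.QS i hq)⟩ (mem_subgroupOf.2 hq))))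
  inv := fun x hx ho hx' => by
    have h1 := h.inv x (mem_sub.1 hx) (by rwa [Subgroup.orderOf_coe])
      (fun i q hq => congrArg Subtype.val (hx' i ⟨q, hSH (h.QS i hq)⟩ (mem_subgroupOf.2 hq)))
    have h2 : Set.range t = H.subtype '' Set.range (fun i => (⟨t i, hSH (E6F.t_mem h i)⟩ : H)) := by
      rw [← Set.range_comp]
      rfl
    rw [h2, ← MonoidHom.map_closure] at h1
    obtain ⟨y, hy, hyx⟩ := h1
    have h3 : y = x := Subtype.ext hyx
    rwa [← h3]

theorem E6V.restrict {k : Type*} [Field k] {V : Type*} [AddCommGroup V] [Module k V] {ρ : G →* (V →ₗ[k] V)}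
    (h : E6F S t Q K) (hV : E6V ρ t Q) {H : Subgroup G} (hSH : (S : Subgroup G) ≤ H) :
    E6V (ρ.comp H.subtype) (fun i => (⟨t i, hSH (E6F.t_mem h i)⟩ : H)) (fun i => (Q i).subgroupOf H) where
  inj := hV.inj.comp H.subtype_injective
  two := hV.two
  dim := hV.dim
  reg := fun i a ha haa => hV.reg i a (mem_subgroupOf.1 ha) (congrArg Subtype.val haa)
  four := fun i j hij => hV.four i j hij
  faith := fun i x hx hx' => Subtype.ext (hV.faith i x (congrArg Subtype.val hx) hx')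

end Restrict

/-- E4: assembly -/
theorem hp_of (hLie : HLie) (hCard : HCard) (hPr : HPr) (hComp : HComp) (hOdd : HOdd) (hFc : HFc) {p : ℕ} {G : Type} [Group G] [Finite G] (h : E6Data p G)
    (hals : ∀ (T : Type) [Group T] [Finite T] [IsSimpleGroup T], ¬ IsMulCommutative T → OddLieM T → ALSX T) :
    HP p G := by
  obtain ⟨k, _, _, _, V, _, _, _, ρ, S, t, Q, K, hF, hV, hN, hz, ho⟩ := h
  refine hFc G p S hN fun H hSH hpH g hg hgS => ?_
  have : Fact (Nat.Prime 2) := ⟨Nat.prime_two⟩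
  have hcH : (Nat.card H : k) ≠ 0 := fun h0 => hpH ((CharP.cast_eq_zero_iff k p _).1 h0)
  have hoH : 2 ^ 17 ∣ Nat.card H := by
    have h3 : 2 ^ 17 ∣ Nat.card (S : Subgroup G) := by
      rw [S.card_eq_multiplicity]
      exact pow_dvd_pow 2 ((Nat.prime_two.pow_dvd_iff_le_factorization Nat.card_pos.ne').1 ho)
    exact h3.trans (Subgroup.card_dvd_of_le hSH)
  have hF' := E6F.restrict hF hSH
  have hV' := E6V.restrict hF hV hSH
  constructor
  · intro r hr hr2 R hR hRr x hx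
    have h1 := hOdd k V H (ρ.comp H.subtype) _ _ _ _ hF' hV' hcH r hr hr2 R hR hRr x hx
    exact hz g hg hgS x (congrArg Subtype.val h1).symm
  · intro L hL x hx
    have h1 := cent hLie hCard hPr hComp hF' hV' hcH hoH hals hL x hx
    exact hz g hg hgS x (congrArg Subtype.val h1).symm

end Cfsg.Agent.H38.Hall
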